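import Mathlib.GroupTheory.FiniteAbelian.Duality
import Mathlib.Analysis.Complex.Basic
import Mathlib.Analysis.Complex.Polynomial.Basic
import Mathlib.FieldTheory.IsSepClosed
import Mathlib.RingTheory.RootsOfUnity.AlgebraicallyClosed
import Mathlib.RingTheory.IntegralDomain
import Mathlib.Algebra.Order.Chebyshev
import Mathlib.Algebra.BigOperators.Finprod

/-!
# A lower bound for weighted norms of functions with lattice Fourier coefficients

Given a subgroup `Λ` of `J → ℂ` (in use: vectors of Galois conjugates of algebraic integers), call a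
weight `w` on a finite abelian group `P` admissible when every function on `P` whose Fourier
coefficients lie in `Λ`, not all zero, has weighted square norm at least `#J * #P ^ 2`.

* `isAdmissible_of_subsingleton`: the trivial group;
* `IsAdmissible.prodWeight`: a factor `B` may be added, weight `r ≥ #B + 1` off its identity;
* `IsAdmissible.comap`: restriction to a subgroup.
-/

set_option autoImplicit false

namespace CfsgLib.KGV

open scoped ComplexConjugate

universe u v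

/-- The characters of a finite abelian group form a finite type. -/
theorem finite_dual (P : Type u) [CommGroup P] [Finite P] : Finite (P →* ℂˣ) := by
  have : NeZero ((Monoid.exponent P : ℕ) : ℂ) :=
    ⟨Nat.cast_ne_zero.2 Monoid.exponent_ne_zero_of_finite⟩
  apply Nat.finite_of_card_ne_zero
  rw [CommGroup.card_monoidHom_of_hasEnoughRootsOfUnity P ℂ]
  exact Nat.card_pos.ne'

theorem card_dual (P : Type u) [CommGroup P] [Finite P] :
    Nat.card (P →* ℂˣ) = Nat.card P := by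
  have : NeZero ((Monoid.exponent P : ℕ) : ℂ) :=
    ⟨Nat.cast_ne_zero.2 Monoid.exponent_ne_zero_of_finite⟩
  exact CommGroup.card_monoidHom_of_hasEnoughRootsOfUnity P ℂ

/-- The function with Fourier coefficients `a`. -/
noncomputable def evalCoeff {J : Type v} {P : Type u} [CommGroup P] (a : (P →* ℂˣ) → J → ℂ)
    (j : J) (x : P) : ℂ :=
  ∑ᶠ φ : P →* ℂˣ, a φ j * ((φ x : ℂˣ) : ℂ)

theorem evalCoeff_eq_sum {J : Type v} {P : Type u} [CommGroup P] [Fintype (P →* ℂˣ)]
    (a : (P →* ℂˣ) → J → ℂ) (j : J) (x : P) :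
    evalCoeff a j x = ∑ φ : P →* ℂˣ, a φ j * ((φ x : ℂˣ) : ℂ) :=
  finsum_eq_sum_of_fintype _

/-- Orthogonality of the characters. -/
theorem sum_mul_conj_char {B : Type u} [CommGroup B] [Fintype B] [DecidableEq (B →* ℂˣ)]
    (γ δ : B →* ℂˣ) :
    ∑ b : B, ((γ b : ℂˣ) : ℂ) * conj ((δ b : ℂˣ) : ℂ) =
      if γ = δ then (Fintype.card B : ℂ) else 0 := by
  classical
  have hnorm : ∀ b : B, ‖((δ b : ℂˣ) : ℂ)‖ = 1 := fun b =>
    Complex.norm_eq_one_of_pow_eq_one (n := Fintype.card B)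
      (by rw [← Units.val_pow_eq_pow_val, ← map_pow, pow_card_eq_one, map_one, Units.val_one])
      Fintype.card_ne_zero
  have he : ∀ b : B, ((γ b : ℂˣ) : ℂ) * conj ((δ b : ℂˣ) : ℂ) =
      ((Units.coeHom ℂ).comp (γ / δ)) b := fun b => by
    rw [← Complex.inv_eq_conj (hnorm b)]
    simp [div_eq_mul_inv]
  rw [Finset.sum_congr rfl fun b _ => he b, sum_hom_units]
  have hiff : ((Units.coeHom ℂ).comp (γ / δ) = 1) ↔ γ = δ := by
    rw [← div_eq_one (a := γ)]
    refine ⟨fun h => MonoidHom.ext fun b => Units.ext (DFunLike.congr_fun h b), fun h => ?_⟩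
    rw [h, MonoidHom.comp_one]
  simp only [hiff]
  split_ifs <;> simp

/-- Parseval. -/
theorem sum_norm_sq_combination {B : Type u} [CommGroup B] [Fintype B] [Fintype (B →* ℂˣ)]
    (F : (B →* ℂˣ) → ℂ) :
    ∑ b : B, ‖∑ γ : B →* ℂˣ, ((γ b : ℂˣ) : ℂ) * F γ‖ ^ 2 =
      (Fintype.card B : ℝ) * ∑ γ : B →* ℂˣ, ‖F γ‖ ^ 2 := by
  classical
  apply Complex.ofReal_injective
  push_cast
  simp only [← Complex.mul_conj', map_sum, map_mul, Finset.sum_mul_sum]
  rw [Finset.sum_comm, Finset.mul_sum]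
  refine Finset.sum_congr rfl fun γ _ => ?_
  rw [Finset.sum_comm, Finset.sum_eq_single γ]
  · rw [Finset.sum_congr rfl (g := fun b => (((γ b : ℂˣ) : ℂ) * conj ((γ b : ℂˣ) : ℂ)) *
      (F γ * conj (F γ))) fun b _ => by ring, ← Finset.sum_mul, sum_mul_conj_char, if_pos rfl]
  · intro δ _ hδ
    rw [Finset.sum_congr rfl (g := fun b => (((γ b : ℂˣ) : ℂ) * conj ((δ b : ℂˣ) : ℂ)) *
      (F γ * conj (F δ))) fun b _ => by ring, ← Finset.sum_mul, sum_mul_conj_char,
      if_neg (Ne.symm hδ), zero_mul]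
  · intro h
    exact absurd (Finset.mem_univ _) h

/-- Admissible weights. -/
def IsAdmissible {J : Type v} [Fintype J] (Λ : AddSubgroup (J → ℂ)) (P : Type u) [CommGroup P]
    [Fintype P] (w : P → ℝ) : Prop :=
  (∀ x, 0 ≤ w x) ∧ ∀ a : (P →* ℂˣ) → J → ℂ, (∀ φ, a φ ∈ Λ) → (∃ φ, a φ ≠ 0) →
    (Fintype.card J : ℝ) * (Fintype.card P : ℝ) ^ 2 ≤
      ∑ j, ∑ x, w x * ‖evalCoeff a j x‖ ^ 2

variable {J : Type v} [Fintype J] {Λ : AddSubgroup (J → ℂ)}

theorem isAdmissible_of_subsingleton (hΛ : ∀ a ∈ Λ, a ≠ 0 →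
    (Fintype.card J : ℝ) ≤ ∑ j, ‖a j‖ ^ 2) (P : Type u) [CommGroup P] [Fintype P]
    [Subsingleton P] : IsAdmissible Λ P (fun _ => 1) := by
  classical
  have := finite_dual P
  have : Fintype (P →* ℂˣ) := Fintype.ofFinite _
  have : Subsingleton (P →* ℂˣ) :=
    ⟨fun φ ψ => MonoidHom.ext fun x => by rw [Subsingleton.elim x 1, map_one, map_one]⟩
  refine ⟨fun _ => zero_le_one, ?_⟩
  rintro a ha ⟨φ, hφ⟩
  have hP : Fintype.card P = 1 :=
    Fintype.card_eq_one_iff.2 ⟨1, fun x => Subsingleton.elim _ _⟩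
  rw [hP, Nat.cast_one, one_pow, mul_one]
  refine (hΛ _ (ha φ) hφ).trans_eq (Finset.sum_congr rfl fun j _ => ?_)
  rw [Fintype.sum_subsingleton _ (1 : P), evalCoeff_eq_sum, Fintype.sum_subsingleton _ φ, map_one,
    Units.val_one, mul_one, one_mul]

/-- Adding a factor. -/
theorem IsAdmissible.prodWeight {P : Type u} [CommGroup P] [Fintype P] {w : P → ℝ}
    (h : IsAdmissible Λ P w) (B : Type u) [CommGroup B] [Fintype B] [DecidableEq B] (r : ℕ)
    (hr : Fintype.card B + 1 ≤ r) :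
    IsAdmissible Λ (B × P) (fun y => (if y.1 = 1 then 1 else (r : ℝ)) * w y.2) := by
  classical
  have := finite_dual B
  have : Fintype (B →* ℂˣ) := Fintype.ofFinite _
  have := finite_dual P
  have : Fintype (P →* ℂˣ) := Fintype.ofFinite _
  have := finite_dual (B × P)
  have : Fintype (B × P →* ℂˣ) := Fintype.ofFinite _
  obtain ⟨hw, hbound⟩ := h
  refine ⟨fun y => mul_nonneg (by split_ifs <;> simp) (hw _), ?_⟩
  rintro a ha ⟨φ₀, hφ₀⟩
  let e : (B →* ℂˣ) × (P →* ℂˣ) ≃ (B × P →* ℂˣ) :=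
    { toFun := fun q => q.1.coprod q.2
      invFun := fun φ => (φ.comp (MonoidHom.inl B P), φ.comp (MonoidHom.inr B P))
      left_inv := fun q => Prod.ext (MonoidHom.ext fun b => by simp) (MonoidHom.ext fun x => by simp)
      right_inv := fun φ => MonoidHom.ext fun y => by
        simp only [MonoidHom.coprod_apply, MonoidHom.comp_apply, MonoidHom.inl_apply,
          MonoidHom.inr_apply, ← map_mul, Prod.mk_mul_mk, mul_one, one_mul] }
  let A : (B →* ℂˣ) → (P →* ℂˣ) → J → ℂ := fun γ φ => a (e (γ, φ))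
  let F : (B →* ℂˣ) → J → P → ℂ := fun γ j x => evalCoeff (A γ) j x
  have hf : ∀ j b x, evalCoeff a j (b, x) = ∑ γ : B →* ℂˣ, ((γ b : ℂˣ) : ℂ) * F γ j x := by
    intro j b x
    simp only [F, evalCoeff_eq_sum, Finset.mul_sum]
    rw [← e.sum_comp, Fintype.sum_prod_type]
    refine Finset.sum_congr rfl fun γ _ => Finset.sum_congr rfl fun φ _ => ?_
    simp only [A, e, Equiv.coe_fn_mk, MonoidHom.coprod_apply, Units.val_mul]
    ring
  set S : Finset (B →* ℂˣ) := Finset.univ.filter fun γ => ∃ φ, A γ φ ≠ 0 with hS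
  have hF0 : ∀ γ, γ ∉ S → ∀ j x, F γ j x = 0 := by
    intro γ hγ j x
    simp only [hS, Finset.mem_filter, Finset.mem_univ, true_and, not_exists, not_not] at hγ
    simp only [F, evalCoeff_eq_sum]
    exact Finset.sum_eq_zero fun φ _ => by rw [hγ φ]; simp
  have hS1 : 1 ≤ S.card := by
    obtain ⟨⟨γ, φ⟩, rfl⟩ := e.surjective φ₀
    exact Finset.card_pos.2 ⟨γ, Finset.mem_filter.2 ⟨Finset.mem_univ _, φ, hφ₀⟩⟩
  have hSc : S.card ≤ Fintype.card B := by
    refine (Finset.card_le_univ S).trans_eq ?_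
    rw [← Nat.card_eq_fintype_card, card_dual, Nat.card_eq_fintype_card]
  set c : ℝ := (Fintype.card B : ℝ) with hc
  set n : ℝ := (S.card : ℝ) with hn
  have hn1 : (1 : ℝ) ≤ n := by rw [hn]; exact_mod_cast hS1
  have hnc : n ≤ c := by rw [hn, hc]; exact_mod_cast hSc
  have hrc : c + 1 ≤ (r : ℝ) := by rw [hc]; exact_mod_cast hr
  set t : ℝ := (r : ℝ) * c - ((r : ℝ) - 1) * n with ht
  have ht0 : 0 ≤ t := by
    rw [ht]
    nlinarith
  -- the bound at one point of `P`
  have hpt : ∀ j x, t * ∑ γ ∈ S, ‖F γ j x‖ ^ 2 ≤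
      ∑ b : B, (if b = 1 then 1 else (r : ℝ)) * ‖evalCoeff a j (b, x)‖ ^ 2 := by
    intro j x
    have h1 : ∑ b : B, (if b = 1 then 1 else (r : ℝ)) * ‖evalCoeff a j (b, x)‖ ^ 2 =
        (r : ℝ) * ∑ b : B, ‖evalCoeff a j (b, x)‖ ^ 2 -
          ((r : ℝ) - 1) * ‖evalCoeff a j (1, x)‖ ^ 2 := by
      rw [← Finset.add_sum_erase _ _ (Finset.mem_univ (1 : B)),
        ← Finset.add_sum_erase _ (fun b : B => ‖evalCoeff a j (b, x)‖ ^ 2)
          (Finset.mem_univ (1 : B)), if_pos rfl,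
        Finset.sum_congr rfl (g := fun b : B => (r : ℝ) * ‖evalCoeff a j (b, x)‖ ^ 2)
          fun b hb => by rw [if_neg (Finset.mem_erase.1 hb).1], ← Finset.mul_sum]
      ring
    have h2 : ∑ b : B, ‖evalCoeff a j (b, x)‖ ^ 2 = c * ∑ γ ∈ S, ‖F γ j x‖ ^ 2 := by
      simp only [hf]
      rw [sum_norm_sq_combination, ← hc]
      congr 1
      refine (Finset.sum_subset (Finset.subset_univ S) fun γ _ hγ => ?_).symm
      rw [hF0 γ hγ, norm_zero, zero_pow two_ne_zero]
    have h3 : ‖evalCoeff a j (1, x)‖ ^ 2 ≤ n * ∑ γ ∈ S, ‖F γ j x‖ ^ 2 := by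
      have h4 : evalCoeff a j (1, x) = ∑ γ ∈ S, F γ j x := by
        rw [hf]
        refine ((Finset.sum_subset (Finset.subset_univ S) fun γ _ hγ => ?_).symm.trans
          (Finset.sum_congr rfl fun γ _ => ?_))
        · rw [hF0 γ hγ, mul_zero]
        · rw [map_one, Units.val_one, one_mul]
      rw [h4, hn]
      exact (pow_le_pow_left₀ (norm_nonneg _) (norm_sum_le _ _) 2).trans sq_sum_le_card_mul_sum_sq
    rw [h1, h2, ht]
    have h5 := mul_le_mul_of_nonneg_left h3 (by linarith : (0 : ℝ) ≤ (r : ℝ) - 1)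
    linarith
  have hin : ∀ γ ∈ S, (Fintype.card J : ℝ) * (Fintype.card P : ℝ) ^ 2 ≤
      ∑ j, ∑ x, w x * ‖F γ j x‖ ^ 2 := fun γ hγ =>
    hbound (A γ) (fun φ => ha _) (Finset.mem_filter.1 hγ).2
  calc (Fintype.card J : ℝ) * (Fintype.card (B × P) : ℝ) ^ 2
      = c ^ 2 * ((Fintype.card J : ℝ) * (Fintype.card P : ℝ) ^ 2) := by
        rw [Fintype.card_prod, hc]; push_cast; ring
    _ ≤ t * n * ((Fintype.card J : ℝ) * (Fintype.card P : ℝ) ^ 2) := by
        refine mul_le_mul_of_nonneg_right ?_ (by positivity)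
        have : 0 ≤ (c - n) * (((r : ℝ) - 1) * n - c) :=
          mul_nonneg (by linarith) (by nlinarith)
        rw [ht]
        nlinarith
    _ ≤ t * ∑ γ ∈ S, ∑ j, ∑ x, w x * ‖F γ j x‖ ^ 2 := by
        rw [mul_assoc, hn]
        refine mul_le_mul_of_nonneg_left ?_ ht0
        rw [← nsmul_eq_mul, ← Finset.sum_const]
        exact Finset.sum_le_sum hin
    _ = ∑ j, ∑ x, w x * (t * ∑ γ ∈ S, ‖F γ j x‖ ^ 2) := by
        rw [Finset.mul_sum, Finset.sum_congr rfl fun γ _ => by rw [Finset.mul_sum],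
          Finset.sum_comm]
        refine Finset.sum_congr rfl fun j _ => ?_
        rw [Finset.sum_congr rfl fun γ _ => Finset.mul_sum .., Finset.sum_comm]
        refine Finset.sum_congr rfl fun x _ => ?_
        rw [Finset.mul_sum, Finset.mul_sum]
        exact Finset.sum_congr rfl fun γ _ => by ring
    _ ≤ ∑ j, ∑ x, w x * ∑ b : B, (if b = 1 then 1 else (r : ℝ)) *
          ‖evalCoeff a j (b, x)‖ ^ 2 :=
        Finset.sum_le_sum fun j _ => Finset.sum_le_sum fun x _ =>
          mul_le_mul_of_nonneg_left (hpt j x) (hw x)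
    _ = _ := by
        refine Finset.sum_congr rfl fun j _ => ?_
        rw [Fintype.sum_prod_type, Finset.sum_comm]
        refine Finset.sum_congr rfl fun x _ => ?_
        rw [Finset.mul_sum]
        exact Finset.sum_congr rfl fun b _ => by ring

/-- Restriction to a subgroup. -/
theorem IsAdmissible.comap {P : Type u} [CommGroup P] [Fintype P] {w : P → ℝ}
    (h : IsAdmissible Λ P w) {C : Type u} [CommGroup C] [Fintype C] (ι : C →* P)
    (hι : Function.Injective ι) (a : (C →* ℂˣ) → J → ℂ) (ha : ∀ φ, a φ ∈ Λ)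
    (hne : ∃ φ, a φ ≠ 0) :
    (Fintype.card J : ℝ) * (Fintype.card C : ℝ) ^ 2 ≤
      ∑ j, ∑ x : C, w (ι x) * ‖evalCoeff a j x‖ ^ 2 := by
  classical
  have := finite_dual C
  have : Fintype (C →* ℂˣ) := Fintype.ofFinite _
  have := finite_dual P
  have : Fintype (P →* ℂˣ) := Fintype.ofFinite _
  have : NeZero ((Monoid.exponent P : ℕ) : ℂ) :=
    ⟨Nat.cast_ne_zero.2 Monoid.exponent_ne_zero_of_finite⟩
  let res : (P →* ℂˣ) →* (C →* ℂˣ) :=
    { toFun := fun ψ => ψ.comp ι
      map_one' := rfl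
      map_mul' := fun _ _ => rfl }
  have hres : Function.Surjective res := by
    intro φ
    obtain ⟨ψ, hψ⟩ := MonoidHom.domRestrict_surjective ℂ ι.range
      (φ.comp (MonoidHom.ofInjective hι).symm.toMonoidHom)
    refine ⟨ψ, MonoidHom.ext fun x => ?_⟩
    have h' := DFunLike.congr_fun hψ (MonoidHom.ofInjective hι x)
    simp only [MonoidHom.comp_apply, MulEquiv.coe_toMonoidHom, MulEquiv.symm_apply_apply] at h'
    exact h'
  set m := Nat.card res.ker with hm
  have hfib : ∀ φ, (Finset.univ.filter fun ψ => res ψ = φ).card = m := by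
    intro φ
    rw [hm, ← Fintype.card_subtype, ← Nat.card_eq_fintype_card]
    exact Nat.card_congr (MonoidHom.fiberEquivKerOfSurjective hres φ)
  have hsum : ∀ g : (C →* ℂˣ) → ℂ, ∑ ψ, g (res ψ) = (m : ℂ) * ∑ φ, g φ := by
    intro g
    rw [Finset.mul_sum, ← Finset.sum_fiberwise Finset.univ res fun ψ => g (res ψ)]
    refine Finset.sum_congr rfl fun φ _ => ?_
    rw [Finset.sum_congr rfl (g := fun _ => g φ) fun ψ hψ => by
      rw [(Finset.mem_filter.1 hψ).2], Finset.sum_const, hfib, nsmul_eq_mul]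
  have hmC : Fintype.card P = m * Fintype.card C := by
    have h1 := Subgroup.card_eq_card_quotient_mul_card_subgroup res.ker
    rw [Nat.card_congr (QuotientGroup.quotientKerEquivOfSurjective res hres).toEquiv, card_dual,
      card_dual, Nat.card_eq_fintype_card, Nat.card_eq_fintype_card, ← hm] at h1
    rw [h1, mul_comm]
  let b : (P →* ℂˣ) → J → ℂ := fun ψ => a (res ψ)
  have hin : ∀ j x, evalCoeff b j (ι x) = (m : ℂ) * evalCoeff a j x := by
    intro j x
    simp only [evalCoeff_eq_sum, b]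
    exact hsum fun φ => a φ j * ((φ x : ℂˣ) : ℂ)
  have hout : ∀ j y, y ∉ ι.range → evalCoeff b j y = 0 := by
    intro j y hy
    obtain ⟨γ, hγ1, hγy⟩ : ∃ γ : P →* ℂˣ, (∀ z ∈ ι.range, γ z = 1) ∧ γ y ≠ 1 := by
      by_contra hcon
      push_neg at hcon
      exact hy ((CommGroup.forall_monoidHom_apply_eq_one_iff ℂ ι.range y).1 hcon)
    have hrγ : res γ = 1 := MonoidHom.ext fun x => hγ1 _ ⟨x, rfl⟩
    rw [evalCoeff_eq_sum]
    set T := ∑ ψ : P →* ℂˣ, b ψ j * ((ψ y : ℂˣ) : ℂ) with hT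
    have h1 : T = ((γ y : ℂˣ) : ℂ) * T := by
      conv_lhs => rw [hT, ← Equiv.sum_comp (Equiv.mulLeft γ)]
      rw [hT, Finset.mul_sum]
      refine Finset.sum_congr rfl fun ψ _ => ?_
      have hb : b (γ * ψ) = b ψ := congrArg a (by
        refine (map_mul res γ ψ).trans ?_
        rw [hrγ]
        exact MonoidHom.ext fun x => by simp)
      simp only [Equiv.coe_mulLeft, hb, MonoidHom.mul_apply, Units.val_mul]
      ring
    have h2 : ((γ y : ℂˣ) : ℂ) - 1 ≠ 0 := sub_ne_zero.2 fun h' => hγy (Units.ext h')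
    have h3 : (((γ y : ℂˣ) : ℂ) - 1) * T = 0 := by rw [sub_mul, one_mul, ← h1, sub_self]
    exact (mul_eq_zero.1 h3).resolve_left h2
  obtain ⟨φ, hφ⟩ := hne
  obtain ⟨ψ, hψ⟩ := hres φ
  have h1 := h.2 b (fun ψ => ha _) ⟨ψ, by simpa [b, hψ] using hφ⟩
  have h2 : ∀ j, ∑ y, w y * ‖evalCoeff b j y‖ ^ 2 =
      (m : ℝ) ^ 2 * ∑ x : C, w (ι x) * ‖evalCoeff a j x‖ ^ 2 := by
    intro j
    rw [← Finset.sum_subset (Finset.subset_univ (Finset.univ.image ι)) fun y _ hy => by
      rw [hout j y (fun ⟨x, hx⟩ => hy (Finset.mem_image.2 ⟨x, Finset.mem_univ _, hx⟩)), norm_zero,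
        zero_pow two_ne_zero, mul_zero],
      Finset.sum_image fun x _ x' _ h' => hι h', Finset.mul_sum]
    refine Finset.sum_congr rfl fun x _ => ?_
    rw [hin, norm_mul, Complex.norm_natCast]
    ring
  rw [Finset.sum_congr rfl fun j _ => h2 j, ← Finset.mul_sum, hmC] at h1
  have hm0 : (0 : ℝ) < (m : ℝ) ^ 2 := by
    have : 0 < m := Nat.card_pos
    positivity
  refine le_of_mul_le_mul_left ?_ hm0
  refine le_trans (le_of_eq ?_) h1
  push_cast
  ring

end CfsgLib.KGV
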