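import Cfsg.Agent.KGV.QuadForm
import Mathlib.GroupTheory.Subgroup.Centralizer
import Mathlib.GroupTheory.Index
import Mathlib.GroupTheory.OrderOfElement

/-!
# Admissible weights from a coprime abelian group acting on an elementary abelian `p`-group

`exists_weight`: for an abelian `p'`-subgroup `C` normalising an abelian subgroup `W` of exponent
`p` there are an admissible weight `w` on a finite abelian group `P` and a homomorphism
`ι : C → P` with kernel the centraliser of `W` and `w (ι h) * |C_W(h)| ≤ |W|`.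
-/

set_option autoImplicit false

namespace CfsgLib.KGV

universe u v

variable {J : Type v} [Fintype J] {Λ : AddSubgroup (J → ℂ)}

theorem exists_weight (hΛ : ∀ a ∈ Λ, a ≠ 0 → (Fintype.card J : ℝ) ≤ ∑ j, ‖a j‖ ^ 2)
    {X : Type u} [Group X] [Finite X] (p : ℕ) [hp : Fact p.Prime] (C : Subgroup X)
    (hCc : ∀ a ∈ C, ∀ b ∈ C, a * b = b * a) (hCp : ¬ p ∣ Nat.card C) :
    ∀ (n : ℕ) (W : Subgroup X), Nat.card W ≤ n → (∀ a ∈ W, ∀ b ∈ W, a * b = b * a) →
      (∀ a ∈ W, a ^ p = 1) → (∀ h ∈ C, ∀ y ∈ W, h * y * h⁻¹ ∈ W) →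
      ∃ (P : Type u) (_ : CommGroup P) (_ : Fintype P) (w : P → ℝ) (ι : ↥C →* P),
        IsAdmissible Λ P w ∧ (∀ h : ↥C, ι h = 1 ↔ ∀ y ∈ W, (h : X) * y = y * h) ∧
        ∀ h : ↥C, w (ι h) * (Nat.card ↥(W ⊓ Subgroup.centralizer {(h : X)}) : ℝ) ≤
          (Nat.card W : ℝ) := by
  classical
  intro n
  induction n with
  | zero =>
    intro W hW
    exact absurd hW (Nat.not_le.2 Nat.card_pos)
  | succ n ih =>
    intro W hW hWc hWp hWn
    by_cases hbot : W = ⊥
    · subst hbot
      refine ⟨PUnit.{u + 1}, inferInstance, inferInstance, fun _ => 1, 1,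
        isAdmissible_of_subsingleton hΛ _, fun h => ?_, fun h => ?_⟩
      · refine iff_of_true rfl fun y hy => ?_
        rw [Subgroup.mem_bot] at hy
        rw [hy, mul_one, one_mul]
      · rw [bot_inf_eq, one_mul]
    -- a maximal proper invariant subgroup
    obtain ⟨U, ⟨hUW, hUne, hUn⟩, hUmax⟩ := Set.exists_max_image
      {U : Subgroup X | U ≤ W ∧ U ≠ W ∧ ∀ h ∈ C, ∀ y ∈ U, h * y * h⁻¹ ∈ U}
      (fun U => Nat.card U) (Set.toFinite _)
      ⟨⊥, bot_le, Ne.symm hbot, fun h _ y hy => by
        rw [Subgroup.mem_bot] at hy ⊢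
        rw [hy, mul_one, mul_inv_cancel]⟩
    obtain ⟨x, hxW, hxU⟩ := SetLike.exists_of_lt (lt_of_le_of_ne hUW hUne)
    -- an element of `C` centralising `x` modulo `U` centralises all of `W` modulo `U`
    have hkey : ∀ h ∈ C, ∀ z ∈ W, z ∉ U → h * z * h⁻¹ * z⁻¹ ∈ U →
        ∀ y ∈ W, h * y * h⁻¹ * y⁻¹ ∈ U := by
      intro h hh z hzW hzU hzh
      let Y : Subgroup X :=
        { carrier := {y | y ∈ W ∧ h * y * h⁻¹ * y⁻¹ ∈ U}
          one_mem' := ⟨W.one_mem, by simp⟩
          mul_mem' := fun {a b} ha hb => ⟨W.mul_mem ha.1 hb.1, by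
            have e : h * (a * b) * h⁻¹ * (a * b)⁻¹ =
                (h * a * h⁻¹ * a⁻¹) * (h * b * h⁻¹ * b⁻¹) := by
              have hc1 := hWc _ (W.mul_mem (hWn h hh b hb.1) (W.inv_mem hb.1)) _ (W.inv_mem ha.1)
              calc h * (a * b) * h⁻¹ * (a * b)⁻¹
                  = (h * a * h⁻¹) * ((h * b * h⁻¹ * b⁻¹) * a⁻¹) := by group
                _ = (h * a * h⁻¹) * (a⁻¹ * (h * b * h⁻¹ * b⁻¹)) := by rw [hc1]
                _ = _ := by group
            rw [e]
            exact U.mul_mem ha.2 hb.2⟩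
          inv_mem' := fun {a} ha => ⟨W.inv_mem ha.1, by
            have e : h * a⁻¹ * h⁻¹ * a⁻¹⁻¹ = (h * a * h⁻¹ * a⁻¹)⁻¹ := by
              have hc1 := hWc _ (W.inv_mem (hWn h hh a ha.1)) _ ha.1
              calc h * a⁻¹ * h⁻¹ * a⁻¹⁻¹ = (h * a * h⁻¹)⁻¹ * a := by group
                _ = a * (h * a * h⁻¹)⁻¹ := hc1
                _ = _ := by group
            rw [e]
            exact U.inv_mem ha.2⟩ }
      have hYn : ∀ g ∈ C, ∀ y ∈ Y, g * y * g⁻¹ ∈ Y := by
        intro g hg y hy
        refine ⟨hWn g hg y hy.1, ?_⟩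
        have hc1 := hCc h hh g hg
        have hc2 := hCc h⁻¹ (C.inv_mem hh) g⁻¹ (C.inv_mem hg)
        have e : h * (g * y * g⁻¹) * h⁻¹ * (g * y * g⁻¹)⁻¹ = g * (h * y * h⁻¹ * y⁻¹) * g⁻¹ := by
          calc h * (g * y * g⁻¹) * h⁻¹ * (g * y * g⁻¹)⁻¹
              = (h * g) * y * (g⁻¹ * h⁻¹) * (g * y⁻¹ * g⁻¹) := by group
            _ = (g * h) * y * (h⁻¹ * g⁻¹) * (g * y⁻¹ * g⁻¹) := by rw [hc1, ← hc2]
            _ = _ := by group
        rw [e]
        exact hUn g hg _ hy.2
      have hUY : U < Y :=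
        lt_of_le_of_ne (fun y hy => ⟨hUW hy, U.mul_mem (hUn h hh y hy) (U.inv_mem hy)⟩)
          fun he => hzU (he ▸ (⟨hzW, hzh⟩ : z ∈ Y))
      have hYW : Y = W := by
        by_contra hne
        have hle := hUmax Y ⟨fun y hy => hy.1, hne, hYn⟩
        exact absurd (Subgroup.eq_of_le_of_card_ge hUY.le hle) hUY.ne
      intro y hy
      have hmem : y ∈ Y := hYW ▸ hy
      exact hmem.2
    -- the kernel on the top layer
    letI : CommGroup ↥C :=
      { (inferInstance : Group ↥C) with mul_comm := fun a b => Subtype.ext (hCc _ a.2 _ b.2) }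
    let K : Subgroup ↥C :=
      { carrier := {h | ∀ y ∈ W, (h : X) * y * (h : X)⁻¹ * y⁻¹ ∈ U}
        one_mem' := fun y _ => by simp
        mul_mem' := fun {g h} hg hh y hy => by
          have e : ((g * h : ↥C) : X) * y * ((g * h : ↥C) : X)⁻¹ * y⁻¹ =
              ((g : X) * ((h : X) * y * (h : X)⁻¹ * y⁻¹) * (g : X)⁻¹) *
                ((g : X) * y * (g : X)⁻¹ * y⁻¹) := by
            rw [Subgroup.coe_mul]; group
          rw [e]
          exact U.mul_mem (hUn _ g.2 _ (hh y hy)) (hg y hy)
        inv_mem' := fun {g} hg y hy => by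
          have hy' : (g : X)⁻¹ * y * (g : X) ∈ W := by
            simpa using hWn _ (C.inv_mem g.2) y hy
          have e : ((g⁻¹ : ↥C) : X) * y * ((g⁻¹ : ↥C) : X)⁻¹ * y⁻¹ =
              ((g : X) * ((g : X)⁻¹ * y * (g : X)) * (g : X)⁻¹ *
                ((g : X)⁻¹ * y * (g : X))⁻¹)⁻¹ := by
            rw [Subgroup.coe_inv]; group
          rw [e]
          exact U.inv_mem (hg _ hy') }
    -- the index of `U` exceeds that of `K`
    set r := U.relIndex W with hrdef
    have hr : Nat.card (↥C ⧸ K) + 1 ≤ r := by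
      have : Fintype (↥C ⧸ K) := Fintype.ofFinite _
      have : Fintype (↥W ⧸ U.subgroupOf W) := Fintype.ofFinite _
      let f : Option (↥C ⧸ K) → ↥W ⧸ U.subgroupOf W := fun o =>
        Option.elim o (QuotientGroup.mk 1) fun q =>
          QuotientGroup.mk ⟨((q.out : ↥C) : X) * x * ((q.out : ↥C) : X)⁻¹,
            hWn _ q.out.2 x hxW⟩
      have hf0 : ∀ q, f none ≠ f (some q) := by
        intro q hq
        have := (QuotientGroup.eq.1 hq)
        simp only [inv_one, one_mul, Subgroup.mem_subgroupOf] at this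
        apply hxU
        have h2 := hUn _ (C.inv_mem q.out.2) _ this
        simpa [mul_assoc] using h2
      have hf : Function.Injective f := by
        rintro (_ | q) (_ | q') hq
        · rfl
        · exact absurd hq (hf0 q')
        · exact absurd hq.symm (hf0 q)
        · congr 1
          have h1 := QuotientGroup.eq.1 hq
          simp only [Subgroup.mem_subgroupOf, Subgroup.coe_mul, Subgroup.coe_inv] at h1
          rw [← QuotientGroup.out_eq' q, ← QuotientGroup.out_eq' q']
          refine QuotientGroup.eq.2 (hkey _ (q.out⁻¹ * q'.out).2 x hxW hxU ?_)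
          have hc : ((q.out : ↥C) : X)⁻¹ * ((q'.out : ↥C) : X) ∈ C :=
            C.mul_mem (C.inv_mem q.out.2) q'.out.2
          set c : X := ((q.out : ↥C) : X)⁻¹ * ((q'.out : ↥C) : X) with hcdef
          have h2 := hUn _ (C.inv_mem q.out.2) _ h1
          have e : ((q.out⁻¹ * q'.out : ↥C) : X) * x * ((q.out⁻¹ * q'.out : ↥C) : X)⁻¹ * x⁻¹ =
              x * ((((q.out : ↥C) : X))⁻¹ *
                ((((q.out : ↥C) : X) * x * ((q.out : ↥C) : X)⁻¹)⁻¹ *
                  (((q'.out : ↥C) : X) * x * ((q'.out : ↥C) : X)⁻¹)) *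
                (((q.out : ↥C) : X)⁻¹)⁻¹) * x⁻¹ := by
            rw [Subgroup.coe_mul, Subgroup.coe_inv]; group
          rw [e, hWc x hxW _ (hUW h2), mul_inv_cancel_right]
          exact h2
      have hcard := Nat.card_le_card_of_injective f hf
      rw [Finite.card_option] at hcard
      exact hcard
    have hlt : Nat.card U < Nat.card W := by
      by_contra hle
      exact hUne (Subgroup.eq_of_le_of_card_ge hUW (not_lt.1 hle))
    obtain ⟨P, iP, iP', w, ι, hadm, hker, hwt⟩ := ih U (by omega)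
      (fun a ha b hb => hWc a (hUW ha) b (hUW hb)) (fun a ha => hWp a (hUW ha)) hUn
    letI : Fintype (↥C ⧸ K) := Fintype.ofFinite _
    refine ⟨(↥C ⧸ K) × P, inferInstance, inferInstance,
      fun y => (if y.1 = 1 then 1 else (r : ℝ)) * w y.2, (QuotientGroup.mk' K).prod ι,
      hadm.prodWeight _ r (by rwa [← Nat.card_eq_fintype_card]), fun h => ?_, fun h => ?_⟩
    · rw [MonoidHom.prod_apply, Prod.mk_eq_one, hker, QuotientGroup.mk'_apply,
        QuotientGroup.eq_one_iff]
      constructor
      · rintro ⟨hK, hU⟩ y hy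
        set g : X := (h : X) with hgdef
        set t : X := g * y * g⁻¹ * y⁻¹ with ht
        have htU : t ∈ U := hK y hy
        have htfix : g * t = t * g := hU t htU
        have hpow : ∀ k : ℕ, g ^ k * y * (g ^ k)⁻¹ = t ^ k * y := by
          intro k
          induction k with
          | zero => simp
          | succ k ihk =>
            have hc : Commute g (t ^ k) := Commute.pow_right htfix k
            calc g ^ (k + 1) * y * (g ^ (k + 1))⁻¹
                = g * (g ^ k * y * (g ^ k)⁻¹) * g⁻¹ := by rw [pow_succ' g k]; group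
              _ = g * t ^ k * y * g⁻¹ := by rw [ihk]; group
              _ = t ^ k * (g * y * g⁻¹ * y⁻¹) * y := by rw [hc.eq]; group
              _ = t ^ (k + 1) * y := by rw [← ht, pow_succ]
        have h1 := hpow (Nat.card C)
        have hg1 : g ^ Nat.card C = 1 := congrArg Subtype.val (pow_card_eq_one' (x := h))
        rw [hg1, one_mul, inv_one, mul_one, right_eq_mul] at h1
        have hcop : p.Coprime (Nat.card C) := hp.out.coprime_iff_not_dvd.2 hCp
        have ht1 := (pow_gcd_eq_one (a := t)).2 ⟨hWp t (hUW htU), h1⟩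
        rw [hcop.gcd_eq_one, pow_one, ht] at ht1
        exact mul_inv_eq_iff_eq_mul.1 (mul_inv_eq_one.1 ht1)
      · intro hall
        refine ⟨fun y hy => ?_, fun y hy => hall y (hUW hy)⟩
        rw [hall y hy, mul_inv_cancel_right, mul_inv_cancel]
        exact U.one_mem
    · simp only [MonoidHom.prod_apply, QuotientGroup.mk'_apply, QuotientGroup.eq_one_iff]
      set Z := W ⊓ Subgroup.centralizer {(h : X)} with hZ
      have hUZ : U ⊓ Subgroup.centralizer {(h : X)} = U ⊓ Z :=
        le_antisymm (le_inf inf_le_left (le_inf (inf_le_left.trans hUW) inf_le_right))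
          (le_inf inf_le_left (inf_le_right.trans inf_le_right))
      have hWU : (Nat.card W : ℝ) = (r : ℝ) * Nat.card U := by
        rw [hrdef, ← Nat.cast_mul, ← Subgroup.relIndex_bot_left, ← Subgroup.relIndex_bot_left,
          mul_comm, Subgroup.relIndex_mul_relIndex _ _ _ bot_le hUW]
      have hw0 := hadm.1 (ι h)
      have hwh := hwt h
      rw [hUZ] at hwh
      rw [hWU]
      split_ifs with hK
      · rw [one_mul]
        have hZle : Nat.card Z ≤ r * Nat.card ↥(U ⊓ Z) := by
          have h1 : (U ⊓ Z).relIndex Z * Nat.card ↥(U ⊓ Z) = Nat.card Z := by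
            rw [← Subgroup.relIndex_bot_left, ← Subgroup.relIndex_bot_left, mul_comm,
              Subgroup.relIndex_mul_relIndex _ _ _ bot_le inf_le_right]
          rw [← h1]
          refine Nat.mul_le_mul_right _ ?_
          rw [Subgroup.inf_relIndex_right]
          refine Subgroup.relIndex_le_of_le_right inf_le_left ?_
          exact Subgroup.index_ne_zero_of_finite
        calc w (ι h) * (Nat.card Z : ℝ) ≤ w (ι h) * ((r : ℝ) * Nat.card ↥(U ⊓ Z)) :=
              mul_le_mul_of_nonneg_left (by exact_mod_cast hZle) hw0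
          _ = (r : ℝ) * (w (ι h) * Nat.card ↥(U ⊓ Z)) := by ring
          _ ≤ _ := mul_le_mul_of_nonneg_left hwh (Nat.cast_nonneg _)
      · have hZU : Z ≤ U := by
          rintro z ⟨hzW, hzc⟩
          by_contra hzU
          apply hK
          refine hkey _ h.2 z hzW hzU ?_
          rw [(Subgroup.mem_centralizer_singleton_iff.1 hzc).symm, mul_inv_cancel_right,
            mul_inv_cancel]
          exact U.one_mem
        rw [inf_eq_right.2 hZU] at hwh
        rw [mul_assoc]
        exact mul_le_mul_of_nonneg_left hwh (Nat.cast_nonneg _)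

end CfsgLib.KGV
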